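import Cfsg.Agent.H866.TD.Cls
import Cfsg.Agent.H922.RG.MTwo

/-!
# S3509, `³D₄(q)`: the `SL₂` of the root `![1, 2]` and the second class of triality automorphisms (helper922)

`x₀ = conj (Φ₀ A) * st q τ`, `τ ^ 3 = 1`, `τ ≠ 1`.

* `Psi : SL₂(K) →* ³D₄(q)`, `Psi (up s) ∈ X_{12}`, `Psi (lo s) ∈ X_{-1-2}`, commuting with `Φ₀`; `x_Psi`;
* `fix_V2` : the fixed points of `x₀` in `V2 = ⟨X_{12}, X_{13}, X_{23}⟩` are `Psi (up F_q)`;
* `imgH` : `ImgH q (V2 ⊓ Cx x₀) (N (V2 ⊓ Cx x₀) N⁻¹)`, `N = Psi (wS 1)`.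
-/

set_option autoImplicit false
set_option linter.unusedSectionVars false
set_option maxHeartbeats 400000

namespace Cfsg.Agent.H922.TD

open CoxeterSystem Cfsg.Agent.ChevalleyStructure.CoxeterGeom Cfsg.Agent.Tits.Roots Cfsg.Agent.Tits.Core
  Cfsg.Agent.Tits.Exchange Cfsg.Agent.Nodes.Reps Cfsg.Agent.Nodes.BNOf Cfsg.Agent.Nodes.StabComb
  Cfsg.Agent.Nodes.Bruhat Cfsg.Agent.Nodes.OppDec Cfsg.Agent.Nodes.LeviDec Cfsg.Agent.Nodes.RGDTwGen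
  Cfsg.Agent.Nodes.RGDChev Cfsg.Agent.Nodes.RGDFold Cfsg.Agent.Nodes.RGDFoldSL
open Cfsg.Agent.KFacts.RgdOpp Cfsg.Agent.KFacts.RgdAut Cfsg.Agent.KFacts.RgdDiag Cfsg.Agent.KFacts.RgdRigid
  Cfsg.Agent.KFacts.RgdField Cfsg.Agent.KFacts.RgdTau Cfsg.Agent.KFacts.RgdNodes
open Cfsg Cfsg.Lie Cfsg.Agent.ChevalleyStructure Cfsg.Agent.ChevalleyStructure.Elts
open Cfsg.Agent.ChevalleyStructure.SL2Hom (up lo mem_closure_SL2)
open Cfsg.Agent.KFacts.TwDFour.Out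
open Cfsg.Agent.Nodes.RGDTwD4 Cfsg.Agent.Nodes.RGDTwNode.D4
open Cfsg.Agent.CpAut.RgdFix Cfsg.Agent.CpAut.RgdConj Cfsg.Agent.CpAut.RgdTwStd Cfsg.Agent.CpAut.RgdTwD4
open Cfsg.Agent.H28.FamFour (st_mul st_one)
open Cfsg.Agent.BpExc.FamField (exists_pow_eq forall_pow_iff)
open Cfsg.Agent.H866.D4Wf.Frame Cfsg.Agent.H866.D4Wf.SLThree Cfsg.Agent.H866.TD
open Cfsg.Agent.H922.RG (Cx mem_Cx)

theorem c_12 : ∀ k < chevD4.nroots, (V chevD4 Nodes.RGDTwD4.J k = ![1, 2] ↔ k ∈ [17, 20, 21]) := by decide +kernel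
theorem c_n12 : ∀ k < chevD4.nroots, (V chevD4 Nodes.RGDTwD4.J k = ![-1, -2] ↔ k ∈ [2, 3, 6]) := by decide +kernel

variable {K : Type} [Field K] [Fintype K] {q : ℕ} (hK : Fintype.card K = q ^ 3)
  {φ : K →+* K} (hφ : ∀ x, φ x = x ^ q)

include hK hφ

/-! ### commuting root groups -/

theorem comm_sr0_12 {a b : ↥(twistedD4 K q)} (ha : a ∈ X φ q ![1, 0]) (hb : b ∈ X φ q ![1, 2]) : a * b = b * a :=
  X_comm_of hK hφ c_sr0 (by decide +kernel) c_12 (by decide +kernel) (by decide +kernel) ha hb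
theorem comm_sr0_n12 {a b : ↥(twistedD4 K q)} (ha : a ∈ X φ q ![1, 0]) (hb : b ∈ X φ q ![-1, -2]) : a * b = b * a :=
  X_comm_of hK hφ c_sr0 (by decide +kernel) c_n12 (by decide +kernel) (by decide +kernel) ha hb
theorem comm_nsr0_12 {a b : ↥(twistedD4 K q)} (ha : a ∈ X φ q ![-1, 0]) (hb : b ∈ X φ q ![1, 2]) : a * b = b * a :=
  X_comm_of hK hφ c_nsr0 (by decide +kernel) c_12 (by decide +kernel) (by decide +kernel) ha hb
theorem comm_nsr0_n12 {a b : ↥(twistedD4 K q)} (ha : a ∈ X φ q ![-1, 0]) (hb : b ∈ X φ q ![-1, -2]) : a * b = b * a :=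
  X_comm_of hK hφ c_nsr0 (by decide +kernel) c_n12 (by decide +kernel) (by decide +kernel) ha hb
theorem comm_12_13 {a b : ↥(twistedD4 K q)} (ha : a ∈ X φ q ![1, 2]) (hb : b ∈ X φ q ![1, 3]) : a * b = b * a :=
  X_comm_of hK hφ c_12 (by decide +kernel) c_del (by decide +kernel) (by decide +kernel) ha hb
theorem comm_12_23 {a b : ↥(twistedD4 K q)} (ha : a ∈ X φ q ![1, 2]) (hb : b ∈ X φ q ![2, 3]) : a * b = b * a :=
  X_comm_of hK hφ c_12 (by decide +kernel) c_the (by decide +kernel) (by decide +kernel) ha hb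

/-! ### the homomorphism `Psi` -/

/-- the element over `s₁ s₀` -/
noncomputable def nn (_hK : Fintype.card K = q ^ 3) (hφ : ∀ x, φ x = x ^ q) : ↥(twistedD4 K q) := n hφ 1 * n hφ 0

/-- the `SL₂` of `![1, 2]` -/
noncomputable def Psi : Matrix.SpecialLinearGroup (Fin 2) (KD φ 1) →* ↥(twistedD4 K q) :=
  (MulAut.conj (nn hK hφ)).toMonoidHom.comp (PhiD hφ hK 1)

theorem Psi_apply (M : Matrix.SpecialLinearGroup (Fin 2) (KD φ 1)) :
    Psi hK hφ M = nn hK hφ * PhiD hφ hK 1 M * (nn hK hφ)⁻¹ := rfl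

theorem cj_nn {x : Fin 2 → ℤ} (hx : x ∈ rts) :
    cj (nn hK hφ) (X φ q x) = X φ q (rep cs isCartan (cs.simple 1) (rep cs isCartan (cs.simple 0) x)) := by
  obtain ⟨r, hr⟩ := CharP.exists K
  have : Fact r.Prime := ⟨CharP.char_is_prime K r⟩
  have R := rgd' hK hφ r
  rw [← R.conj 1 _ ((isRoot_of_mem hx).act _), ← R.conj 0 x (isRoot_of_mem hx)]
  ext y
  rw [mem_cj, mem_cj, mem_cj]
  unfold nn
  have e : (n hφ 1 * n hφ 0)⁻¹ * y * (n hφ 1 * n hφ 0) = (n hφ 0)⁻¹ * ((n hφ 1)⁻¹ * y * n hφ 1) * n hφ 0 := by group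
  rw [e]

theorem mem_X12 (y : ↥(twistedD4 K q)) : y ∈ X φ q ![1, 2] ↔ ∃ s, Psi hK hφ (up s) = y := by
  have h1 := cj_nn hK hφ (x := ![0, 1]) (by decide)
  rw [rep0, rep1] at h1
  have e : (![1 - 0, 3 * (1 - 0) - 1] : Fin 2 → ℤ) = ![1, 2] := by decide
  rw [e] at h1
  rw [← h1, mem_cj, ← sr1_eq, mem_X hφ hK 1]
  constructor
  · rintro ⟨s, hs⟩
    refine ⟨s, ?_⟩
    rw [Psi_apply, ← hs]
    group
  · rintro ⟨s, rfl⟩
    refine ⟨s, ?_⟩
    rw [Psi_apply]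
    group

theorem mem_Xn12 (y : ↥(twistedD4 K q)) : y ∈ X φ q ![-1, -2] ↔ ∃ s, Psi hK hφ (lo s) = y := by
  have h1 := cj_nn hK hφ (x := ![0, -1]) (by decide)
  rw [rep0, rep1] at h1
  have e : (![-1 - 0, 3 * (-1 - 0) - -1] : Fin 2 → ℤ) = ![-1, -2] := by decide
  rw [e] at h1
  have e2 : (![0, -1] : Fin 2 → ℤ) = -sr 1 := by decide
  rw [← h1, mem_cj, e2, mem_negX hK hφ 1]
  constructor
  · rintro ⟨s, hs⟩
    refine ⟨s, ?_⟩
    rw [Psi_apply, ← hs]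
    group
  · rintro ⟨s, rfl⟩
    refine ⟨s, ?_⟩
    rw [Psi_apply]
    group

/-- `Psi` commutes with `Φ₀` -/
theorem Psi_comm (A : Matrix.SpecialLinearGroup (Fin 2) (KD φ 0)) (M : Matrix.SpecialLinearGroup (Fin 2) (KD φ 1)) :
    PhiD hφ hK 0 A * Psi hK hφ M = Psi hK hφ M * PhiD hφ hK 0 A := by
  have e2 : (![-1, 0] : Fin 2 → ℤ) = -sr 0 := by decide
  have hL : ∀ y : ↥(twistedD4 K q), (∀ a, PhiD hφ hK 0 (up a) * y = y * PhiD hφ hK 0 (up a)) →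
      (∀ a, PhiD hφ hK 0 (lo a) * y = y * PhiD hφ hK 0 (lo a)) → PhiD hφ hK 0 A * y = y * PhiD hφ hK 0 A := by
    intro y h1 h2
    have h3 : Subgroup.closure (Set.range (up (F := KD φ 0)) ∪ Set.range (lo (F := KD φ 0))) ≤
        (Subgroup.centralizer {y}).comap (PhiD hφ hK 0) := by
      rw [Subgroup.closure_le]
      rintro _ (⟨a, rfl⟩ | ⟨a, rfl⟩)
      · exact Subgroup.mem_centralizer_singleton_iff.2 (h1 a)
      · exact Subgroup.mem_centralizer_singleton_iff.2 (h2 a)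
    exact Subgroup.mem_centralizer_singleton_iff.1 (h3 (mem_closure_SL2 A))
  have hup : ∀ a, PhiD hφ hK 0 (up a) ∈ X φ q ![1, 0] := fun a => by
    rw [← sr0_eq]; exact (mem_X hφ hK 0 _).2 ⟨a, rfl⟩
  have hlo : ∀ a, PhiD hφ hK 0 (lo a) ∈ X φ q ![-1, 0] := fun a => by
    rw [e2]; exact (mem_negX hK hφ 0 _).2 ⟨a, rfl⟩
  have h3 : Subgroup.closure (Set.range (up (F := KD φ 1)) ∪ Set.range (lo (F := KD φ 1))) ≤
      (Subgroup.centralizer {PhiD hφ hK 0 A}).comap (Psi hK hφ) := by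
    rw [Subgroup.closure_le]
    rintro _ (⟨s, rfl⟩ | ⟨s, rfl⟩)
    · have hs : Psi hK hφ (up s) ∈ X φ q ![1, 2] := (mem_X12 hK hφ _).2 ⟨s, rfl⟩
      exact Subgroup.mem_centralizer_singleton_iff.2 (hL _ (fun a => comm_sr0_12 hK hφ (hup a) hs)
        (fun a => comm_nsr0_12 hK hφ (hlo a) hs)).symm
    · have hs : Psi hK hφ (lo s) ∈ X φ q ![-1, -2] := (mem_Xn12 hK hφ _).2 ⟨s, rfl⟩
      exact Subgroup.mem_centralizer_singleton_iff.2 (hL _ (fun a => comm_sr0_n12 hK hφ (hup a) hs)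
        (fun a => comm_nsr0_n12 hK hφ (hlo a) hs)).symm
  exact (Subgroup.mem_centralizer_singleton_iff.1 (h3 (mem_closure_SL2 M))).symm

theorem st_Psi (τ : K ≃+* K) (M : Matrix.SpecialLinearGroup (Fin 2) (KD φ 1)) :
    st q τ (Psi hK hφ M) =
      Psi hK hφ (Matrix.SpecialLinearGroup.map ((rs hφ τ 1 : KD φ 1 ≃+* KD φ 1) : KD φ 1 →+* KD φ 1) M) := by
  rw [Psi_apply, Psi_apply, map_mul, map_mul, map_inv, st_Phi hK hφ]
  have e : st q τ (nn hK hφ) = nn hK hφ := by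
    unfold nn
    rw [map_mul, st_n hφ τ, st_n hφ τ]
  rw [e]

/-- the action of `x₀` on the image of `Psi` -/
theorem x_Psi (A : Matrix.SpecialLinearGroup (Fin 2) (KD φ 0)) (τ : K ≃+* K)
    (M : Matrix.SpecialLinearGroup (Fin 2) (KD φ 1)) :
    (MulAut.conj (PhiD hφ hK 0 A) * st q τ) (Psi hK hφ M) =
      Psi hK hφ (Matrix.SpecialLinearGroup.map ((rs hφ τ 1 : KD φ 1 ≃+* KD φ 1) : KD φ 1 →+* KD φ 1) M) := by
  rw [MulAut.mul_apply, st_Psi, MulAut.conj_apply, Psi_comm, mul_inv_cancel_right]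

/-- the kernel -/
theorem Psi_up_inj {s : KD φ 1} (h : Psi hK hφ (up s) = 1) : s = 0 := by
  have h1 : PhiD hφ hK 1 (up s) = 1 := by
    rw [Psi_apply] at h
    have e : PhiD hφ hK 1 (up s) = (nn hK hφ)⁻¹ * (nn hK hφ * PhiD hφ hK 1 (up s) * (nn hK hφ)⁻¹) * nn hK hφ := by group
    rw [e, h]
    group
  have h2 := (ker_Phi hK hφ 1 h1).2.1
  simpa [up] using h2

/-! ### the fixed field -/

theorem tau_phe (hq : IsPrimePow q) {τ : K ≃+* K} (hτ : τ ^ 3 = 1) : ∃ m : ℕ, τ = phe hφ ^ m := by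
  obtain ⟨r, hr⟩ := CharP.exists K
  have : Fact r.Prime := ⟨CharP.char_is_prime K r⟩
  obtain ⟨n, hn0, hn⟩ := H27.Exc.exists_pow (r := r) three_pos hq hK
  obtain ⟨j, hj⟩ := exists_pow_eq r τ
  have hcard : Nat.card K = r ^ (n * 3) := by rw [Nat.card_eq_fintype_card, hK, hn, pow_mul]
  have h1 : ∀ b : K, b ^ r ^ (j * 3) = b := by
    intro b
    have h2 := Cfsg.Agent.BpExc.FamField.pow_apply_of hj 3 b
    rw [hτ] at h2
    exact h2.symm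
  have h2 : n ∣ j := by
    have h3 := (forall_pow_iff (F := K) r hcard (j * 3)).1 h1
    exact Nat.dvd_of_mul_dvd_mul_right three_pos h3
  obtain ⟨m, rfl⟩ := h2
  refine ⟨m, ?_⟩
  ext a
  have h3 : ∀ m : ℕ, (phe hφ ^ m) a = a ^ q ^ m := by
    intro m
    induction m with
    | zero => rw [pow_zero, pow_zero, pow_one]; rfl
    | succ m ih =>
      rw [pow_succ', RingAut.mul_apply, ih, phe_apply, hφ, pow_succ, pow_mul]
  rw [h3, hj, hn, pow_mul]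

/-- the fixed field of `τ` -/
theorem mem_KD0_of_tau (hq : IsPrimePow q) {τ : K ≃+* K} (hτ : τ ^ 3 = 1) (hτ1 : τ ≠ 1) {a : K} (ha : τ a = a) :
    a ∈ KD φ 0 := by
  rw [mem_Fx]
  show φ a = a
  obtain ⟨m, hm⟩ := tau_phe hK hφ hq hτ
  have h3 : phe hφ ^ 3 = 1 := phe_three hK hφ
  have h4 : ∀ k : ℕ, phe hφ ^ k = phe hφ ^ (k % 3) := by
    intro k
    conv_lhs => rw [← Nat.mod_add_div k 3, pow_add, pow_mul, h3, one_pow, mul_one]
  have h5 : phe hφ = τ ^ m := by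
    have h6 : m % 3 = 1 ∨ m % 3 = 2 := by
      have h7 : m % 3 ≠ 0 := by
        intro h8
        apply hτ1
        rw [hm, h4, h8, pow_zero]
      omega
    rw [hm, ← pow_mul, h4]
    have h7 : m * m % 3 = 1 := by
      rw [Nat.mul_mod]
      rcases h6 with h6 | h6 <;> rw [h6]
    rw [h7, pow_one]
  have h6 : ∀ k : ℕ, (τ ^ k) a = a := by
    intro k
    induction k with
    | zero => rfl
    | succ k ih => rw [pow_succ, RingAut.mul_apply, ha, ih]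
  have h7 := h6 m
  rw [← h5] at h7
  exact h7

/-! ### the fixed points in `V2` -/

/-- the inclusion `SL₂(F_q) → SL₂(K)` followed by `Psi` -/
noncomputable def Psi0 : Matrix.SpecialLinearGroup (Fin 2) (KD φ 0) →* ↥(twistedD4 K q) :=
  (Psi hK hφ).comp (Matrix.SpecialLinearGroup.map (Subfield.inclusion (F1_le_F3 (φ := φ))))

theorem Psi0_up (s : KD φ 0) : Psi0 hK hφ (up s) = Psi hK hφ (up (Subfield.inclusion F1_le_F3 s)) := by
  show Psi hK hφ (Matrix.SpecialLinearGroup.map _ (up s)) = _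
  rw [Cfsg.Agent.Nodes.RGDFoldSL.map_up]

theorem Psi0_lo (s : KD φ 0) : Psi0 hK hφ (lo s) = Psi hK hφ (lo (Subfield.inclusion F1_le_F3 s)) := by
  show Psi hK hφ (Matrix.SpecialLinearGroup.map _ (lo s)) = _
  rw [Cfsg.Agent.Nodes.RGDFoldSL.map_lo]

theorem x_Psi0 (hq : IsPrimePow q) (A : Matrix.SpecialLinearGroup (Fin 2) (KD φ 0)) {τ : K ≃+* K} (hτ : τ ^ 3 = 1)
    (M : Matrix.SpecialLinearGroup (Fin 2) (KD φ 0)) :
    (MulAut.conj (PhiD hφ hK 0 A) * st q τ) (Psi0 hK hφ M) = Psi0 hK hφ M := by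
  show (MulAut.conj (PhiD hφ hK 0 A) * st q τ) (Psi hK hφ _) = Psi hK hφ _
  rw [x_Psi]
  congr 1
  apply Subtype.ext
  ext i j
  show τ ((M.1 i j : KD φ 0) : K) = ((M.1 i j : KD φ 0) : K)
  exact tau_fix hK hφ hq hτ (mem_Fx.1 (M.1 i j).2)

/-- the fixed points in `X_{12}` -/
theorem fix_X12 (hq : IsPrimePow q) (A : Matrix.SpecialLinearGroup (Fin 2) (KD φ 0)) {τ : K ≃+* K} (hτ : τ ^ 3 = 1)
    (hτ1 : τ ≠ 1) (y : ↥(twistedD4 K q)) :
    (y ∈ X φ q ![1, 2] ∧ (MulAut.conj (PhiD hφ hK 0 A) * st q τ) y = y) ↔ ∃ s, Psi0 hK hφ (up s) = y := by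
  constructor
  · rintro ⟨h1, h2⟩
    obtain ⟨s, rfl⟩ := (mem_X12 hK hφ y).1 h1
    rw [x_Psi, Cfsg.Agent.Nodes.RGDFoldSL.map_up] at h2
    have h3 : Psi hK hφ (up (rs hφ τ 1 s - s)) = 1 := by
      rw [sub_eq_add_neg, ← up_mul, map_mul, ← up_inv', map_inv]
      rw [mul_inv_eq_one]
      exact h2
    have h4 := sub_eq_zero.1 (Psi_up_inj hK hφ h3)
    have h5 : τ (s : K) = s := congrArg Subtype.val h4
    refine ⟨⟨s, mem_KD0_of_tau hK hφ hq hτ hτ1 h5⟩, ?_⟩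
    rw [Psi0_up]
    rfl
  · rintro ⟨s, rfl⟩
    refine ⟨?_, x_Psi0 hK hφ hq A hτ _⟩
    rw [Psi0_up]
    exact (mem_X12 hK hφ _).2 ⟨_, rfl⟩

end Cfsg.Agent.H922.TD
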